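import Cfsg.Agent.S2366
import Cfsg.Agent.S0280
import Cfsg.Agent.S0283
import Cfsg.Agent.Lib.AutPSU.Sylow
import Mathlib.GroupTheory.GroupAction.SubMulAction
import Mathlib.GroupTheory.SpecificGroups.Cyclic

/-!
`PSU₃(5)` has no proper subgroup of index below 50.
-/

set_option autoImplicit false

namespace Cfsg.Agent.Lib.UThreeFive

open Matrix Cfsg.Agent.Lib.AutPSU MulAction
open scoped Pointwise

section generic

variable {G : Type*} [Group G]

/-- A subgroup of small index forces abelian `5`-subgroups. -/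
theorem le_index_of_noncommutative [Finite G] (H : Subgroup G) (hcore : H.normalCore = ⊥)
    {Q : Subgroup G} (hQ : IsPGroup 5 Q) {a b : G} (ha : a ∈ Q) (hb : b ∈ Q) (hab : a * b ≠ b * a) :
    25 ≤ H.index := by
  haveI : Fact (Nat.Prime 5) := ⟨by norm_num⟩
  by_contra hlt
  push Not at hlt
  have key : ∀ x : G ⧸ H, (a * b) • x = (b * a) • x := by
    intro x
    set K := stabilizer Q x
    have hle : K.index ≤ H.index := by
      rw [index_stabilizer]
      exact (Set.ncard_le_ncard (Set.subset_univ _)).trans_eq (by rw [Set.ncard_univ]; rfl)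
    obtain ⟨k, hk⟩ := hQ.index K
    have hk1 : k ≤ 1 := by
      by_contra h
      have h25 : (5 : ℕ) ^ 2 ≤ 5 ^ k := Nat.pow_le_pow_right (by norm_num) (by omega)
      omega
    rcases Nat.le_one_iff_eq_zero_or_eq_one.1 hk1 with rfl | rfl
    · rw [pow_zero, Subgroup.index_eq_one] at hk
      have hfix : ∀ g ∈ Q, g • x = x := fun g hg =>
        show ((⟨g, hg⟩ : Q) • x = x) from mem_stabilizer_iff.1 (show (⟨g, hg⟩ : Q) ∈ K from hk ▸ Subgroup.mem_top _)
      rw [hfix _ (mul_mem ha hb), hfix _ (mul_mem hb ha)]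
    · have hnt : Nontrivial Q := ⟨⟨a, ha⟩, ⟨b, hb⟩, fun h => hab (by rw [show a = b from congrArg Subtype.val h])⟩
      haveI hKn : K.Normal := by
        refine Subgroup.normal_of_index_eq_minFac_card ?_
        rw [hk, pow_one]
        obtain ⟨n, hn⟩ := hQ.exists_card_eq
        have hn0 : n ≠ 0 := by
          rintro rfl
          rw [pow_zero] at hn
          have := Finite.one_lt_card (α := Q)
          omega
        rw [hn, Nat.Prime.pow_minFac (by norm_num) hn0]
      haveI : IsCyclic (Q ⧸ K) := by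
        haveI : Fact (Nat.Prime 5) := ⟨by norm_num⟩
        exact isCyclic_of_prime_card (p := 5) (by rw [← Subgroup.index_eq_card, hk, pow_one])
      have hc : QuotientGroup.mk' K ((⟨a, ha⟩ : Q) * ⟨b, hb⟩) = QuotientGroup.mk' K (⟨b, hb⟩ * ⟨a, ha⟩) := by
        rw [map_mul, map_mul]
        exact IsMulCommutative.is_comm.comm _ _
      rw [QuotientGroup.mk'_eq_mk'] at hc
      obtain ⟨z, hz, hzc⟩ := hc
      replace hc : ((⟨a, ha⟩ : Q) * ⟨b, hb⟩)⁻¹ * (⟨b, hb⟩ * ⟨a, ha⟩) ∈ K := by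
        rw [← hzc, inv_mul_cancel_left]; exact hz
      have h1 : ((((⟨a, ha⟩ : Q) * ⟨b, hb⟩)⁻¹ * (⟨b, hb⟩ * ⟨a, ha⟩) : Q) : G) • x = x :=
        mem_stabilizer_iff.1 hc
      simp only [Subgroup.coe_mul, Subgroup.coe_inv] at h1
      rw [← smul_smul, inv_smul_eq_iff] at h1
      exact h1.symm
  apply hab
  have hmem : (a * b)⁻¹ * (b * a) ∈ H.normalCore := by
    rw [Subgroup.normalCore_eq_ker, MonoidHom.mem_ker]
    ext x
    show ((a * b)⁻¹ * (b * a)) • x = x
    rw [← smul_smul, ← key, inv_smul_smul]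
  rw [hcore, Subgroup.mem_bot] at hmem
  exact inv_mul_eq_one.1 hmem

/-- If the number of Sylow `p`-subgroups is not `1` mod `p ^ k`, two of them meet in index below `p ^ k`. -/
theorem exists_large_inf [Finite G] {p k : ℕ} [Fact p.Prime] (S : Sylow p G)
    (h : ¬ Nat.card (Sylow p G) ≡ 1 [MOD p ^ k]) :
    ∃ T : Sylow p G, T ≠ S ∧ Nat.card S < p ^ k * Nat.card ↥((S : Subgroup G) ⊓ (T : Subgroup G)) := by
  classical
  haveI := Fintype.ofFinite (orbitRel.Quotient S (Sylow p G))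
  by_contra hcon
  push Not at hcon
  apply h
  have hsum : Nat.card (Sylow p G) = ∑ ω : orbitRel.Quotient S (Sylow p G), Nat.card (orbitRel.Quotient.orbit ω) := by
    rw [Nat.card_congr (selfEquivSigmaOrbits' S (Sylow p G)), Nat.card_sigma]
  have horb : ∀ T : Sylow p G, T ≠ S → p ^ k ∣ Nat.card (orbit S T) := by
    intro T hT
    obtain ⟨j, hj⟩ := S.isPGroup'.index (stabilizer S T)
    have hst : (stabilizer S T).map (S : Subgroup G).subtype = (S : Subgroup G) ⊓ (T : Subgroup G) := by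
      ext x
      simp only [Subgroup.mem_map, mem_stabilizer_iff, Subgroup.coe_subtype, Subgroup.mem_inf]
      constructor
      · rintro ⟨g, hg, rfl⟩
        have hg' : (g : G) ∈ Subgroup.normalizer ((T : Subgroup G) : Set G) := Sylow.smul_eq_iff_mem_normalizer.1 hg
        exact ⟨g.2, (S.isPGroup'.inf_normalizer_sylow T).le ⟨g.2, hg'⟩ |>.2⟩
      · rintro ⟨hx, hx'⟩
        exact ⟨⟨x, hx⟩, Sylow.smul_eq_iff_mem_normalizer.2 (Subgroup.le_normalizer hx'), rfl⟩
    have hcard := (stabilizer S T).card_mul_index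
    rw [← Subgroup.card_map_of_injective (K := stabilizer S T) (Subgroup.subtype_injective _), hst, hj] at hcard
    have h3 := hcon T hT
    have hpos : 0 < Nat.card ↥((S : Subgroup G) ⊓ (T : Subgroup G)) := Nat.card_pos
    have hkj : k ≤ j := by
      have : p ^ k * Nat.card ↥((S : Subgroup G) ⊓ (T : Subgroup G)) ≤
          p ^ j * Nat.card ↥((S : Subgroup G) ⊓ (T : Subgroup G)) := h3.trans_eq (by rw [← hcard, mul_comm])
      exact (Nat.pow_le_pow_iff_right (Fact.out : p.Prime).one_lt).1 (Nat.le_of_mul_le_mul_right this hpos)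
    have hi := index_stabilizer (G := S) T
    rw [hj] at hi
    rw [Nat.card_coe_set_eq, ← hi]
    exact pow_dvd_pow p hkj
  have hS : ∀ g : S, g • S = S := fun g => Sylow.smul_eq_iff_mem_normalizer.2 (Subgroup.le_normalizer g.2)
  have hSorb : orbit S S = {S} := by
    ext T
    constructor
    · rintro ⟨g, rfl⟩; exact hS g
    · rintro rfl; exact mem_orbit_self _
  rw [hsum, ← Finset.add_sum_erase _ _ (Finset.mem_univ (Quotient.mk'' S : orbitRel.Quotient S (Sylow p G)))]
  have h0 : Nat.card (orbitRel.Quotient.orbit (Quotient.mk'' S : orbitRel.Quotient S (Sylow p G))) = 1 := by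
    rw [orbitRel.Quotient.orbit_mk, hSorb, Nat.card_coe_set_eq, Set.ncard_singleton]
  rw [h0]
  refine (Nat.ModEq.add_left 1 (Nat.modEq_zero_iff_dvd.2 (Finset.dvd_sum ?_))).trans (by rfl)
  intro ω hω
  rw [Finset.mem_erase] at hω
  induction ω using Quotient.inductionOn' with
  | _ T =>
    rw [orbitRel.Quotient.orbit_mk]
    exact horb T fun hT => hω.1 (by rw [hT])

end generic

variable {F : Type*} [Field F] [Fintype F] (hF : Fintype.card F = 5 ^ 2) [CharP F 5]
include hF

local notation "G" => AutPSU.P 3 F 5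

omit [CharP F 5] in
theorem card_eq : Nat.card (AutPSU.P 3 F 5) = 126000 := by
  have h := Cfsg.Agent.S0280.result hF 3 (by norm_num)
  simp [Finset.prod_range_succ, Nat.even_add_one] at h
  norm_num at h
  change 3 * (6 * Nat.card (AutPSU.P 3 F 5)) = 2268000 at h
  omega

theorem order_dvd (g : AutPSU.P 3 F 5) :
    orderOf g ∣ 6 ∨ orderOf g ∣ 10 ∨ orderOf g ∣ 8 ∨ orderOf g ∣ 7 := by
  haveI : Fact (Nat.Prime 5) := ⟨by norm_num⟩
  have h : orderOf g ∈ Set.range (orderOf : AutPSU.P 3 F 5 → ℕ) := ⟨g, rfl⟩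
  rw [Cfsg.Agent.S2366.result 5 (by norm_num) 5 hF] at h
  simp only [Set.mem_union, Set.mem_ofPred_eq] at h
  norm_num at h
  tauto

theorem exists_eight : ∃ g : AutPSU.P 3 F 5, orderOf g = 8 := by
  haveI : Fact (Nat.Prime 5) := ⟨by norm_num⟩
  have h : (8 : ℕ) ∈ Set.range (orderOf : AutPSU.P 3 F 5 → ℕ) := by
    rw [Cfsg.Agent.S2366.result 5 (by norm_num) 5 hF]
    simp only [Set.mem_union, Set.mem_ofPred_eq]
    norm_num
  exact h

/-- Orders of elements commuting with an element of order 5. -/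
theorem pow_two_of_commute {x y : AutPSU.P 3 F 5} (hx : orderOf x = 5) (h : Commute x y)
    (hy : Nat.Coprime (orderOf y) 5) : y ^ 2 = 1 := by
  have h1 := h.orderOf_mul_eq_mul_orderOf_of_coprime (by rw [hx]; exact hy.symm)
  rw [hx] at h1
  refine orderOf_dvd_iff_pow_eq_one.1 ?_
  rcases order_dvd hF (x * y) with h2 | h2 | h2 | h2 <;> rw [h1] at h2
  · exact absurd ((dvd_mul_right 5 _).trans h2) (by norm_num)
  · exact (Nat.mul_dvd_mul_iff_left (by norm_num : 0 < 5)).1 (h2.trans (by norm_num))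
  · exact absurd ((dvd_mul_right 5 _).trans h2) (by norm_num)
  · exact absurd ((dvd_mul_right 5 _).trans h2) (by norm_num)

/-- A subgroup centralised by an element of order 5 has one Sylow 5-subgroup. -/
theorem sylow_five_of_centralized (C : Subgroup (AutPSU.P 3 F 5)) {x : AutPSU.P 3 F 5} (hx : orderOf x = 5)
    (hC : ∀ y ∈ C, Commute x y) : Nat.card (Sylow 5 C) = 1 := by
  haveI : Fact (Nat.Prime 5) := ⟨by norm_num⟩
  haveI : Fact (Nat.Prime 2) := ⟨by norm_num⟩
  obtain ⟨T5⟩ : Nonempty (Sylow 5 C) := inferInstance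
  have hdvd : Nat.card C ∣ 2 ^ 4 * 5 ^ 3 := by
    have h1 : Nat.card C ∣ 2 ^ 4 * 5 ^ 3 * 63 := by
      have := Subgroup.card_subgroup_dvd_card C
      rw [card_eq hF] at this
      exact this.trans (by norm_num)
    refine (Nat.Coprime.dvd_of_dvd_mul_right ?_ h1)
    have hno : ∀ r : ℕ, r.Prime → Nat.Coprime r 10 → ¬ r ∣ Nat.card C := by
      intro r hr h10 hdvd
      haveI : Fact r.Prime := ⟨hr⟩
      obtain ⟨y, hy⟩ := exists_prime_orderOf_dvd_card' r hdvd
      have hy' : orderOf (y : AutPSU.P 3 F 5) = r := by rw [Subgroup.orderOf_coe, hy]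
      have h2 : (y : AutPSU.P 3 F 5) ^ 2 = 1 := by
        refine pow_two_of_commute hF hx (hC _ y.2) ?_
        rw [hy']
        exact h10.coprime_dvd_right (by norm_num)
      have h3 := orderOf_dvd_iff_pow_eq_one.2 h2
      rw [hy'] at h3
      exact hr.one_lt.ne' (Nat.Coprime.eq_one_of_dvd (h10.coprime_dvd_right (by norm_num)) h3)
    rw [show (63 : ℕ) = 3 ^ 2 * 7 from rfl]
    refine Nat.Coprime.mul_right (Nat.Coprime.pow_right _ ?_) ?_
    · exact ((Nat.Prime.coprime_iff_not_dvd (by norm_num)).2 (hno 3 (by norm_num) (by norm_num))).symm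
    · exact ((Nat.Prime.coprime_iff_not_dvd (by norm_num)).2 (hno 7 (by norm_num) (by norm_num))).symm
  have hn : Nat.card (Sylow 5 C) ∣ 2 ^ 4 := by
    refine Nat.Coprime.dvd_of_dvd_mul_right ?_ ((T5.card_dvd_index.trans (Subgroup.index_dvd_card _)).trans hdvd)
    have hmod : Nat.card (Sylow 5 C) % 5 = 1 := card_sylow_modEq_one 5 C
    refine Nat.Coprime.pow_right _ ?_
    exact ((Nat.Prime.coprime_iff_not_dvd (by norm_num)).2 (fun h => by
      obtain ⟨c, hc⟩ := h; omega)).symm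
  obtain ⟨i, hi, hi'⟩ := (Nat.dvd_prime_pow Nat.prime_two).1 hn
  have hmod : Nat.card (Sylow 5 C) % 5 = 1 := card_sylow_modEq_one 5 C
  rw [hi'] at hmod ⊢
  interval_cases i
  · rfl
  · norm_num at hmod
  · norm_num at hmod
  · norm_num at hmod
  · exfalso
    have h16 : 2 ^ 4 ∣ Nat.card C := hi' ▸ T5.card_dvd_index.trans (Subgroup.index_dvd_card _)
    obtain ⟨T, hT⟩ := Sylow.exists_subgroup_card_pow_prime 2 h16
    obtain ⟨g, hg⟩ := exists_eight hF
    obtain ⟨U, hU⟩ := (IsPGroup.of_card (p := 2) (n := 4)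
      (show Nat.card ↥(T.map C.subtype) = 2 ^ 4 by
        rw [Subgroup.card_map_of_injective (Subgroup.subtype_injective _), hT])).exists_le_sylow
    have hUeq : T.map C.subtype = (U : Subgroup (AutPSU.P 3 F 5)) := by
      refine Subgroup.eq_of_le_of_card_ge hU ?_
      rw [Subgroup.card_map_of_injective (Subgroup.subtype_injective _), hT,
        U.card_eq_multiplicity, card_eq hF,
        show (126000 : ℕ).factorization 2 = 4 by
          rw [show (126000 : ℕ) = 2 ^ 4 * 7875 from rfl, Nat.factorization_mul (by norm_num) (by norm_num),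
            Finsupp.add_apply, Nat.Prime.factorization_pow Nat.prime_two,
            Nat.factorization_eq_zero_of_not_dvd (show ¬ 2 ∣ 7875 by norm_num), Finsupp.single_eq_same]]
    obtain ⟨V, hV⟩ := (IsPGroup.of_card (p := 2) (n := 3)
      (show Nat.card ↥(Subgroup.zpowers g) = 2 ^ 3 by rw [Nat.card_zpowers, hg]; norm_num)).exists_le_sylow
    obtain ⟨c, hc⟩ := MulAction.exists_smul_eq (AutPSU.P 3 F 5) V U
    have hmem : c * g * c⁻¹ ∈ T.map C.subtype := by
      rw [hUeq, ← hc, Sylow.coe_subgroup_smul]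
      exact Subgroup.smul_mem_pointwise_smul g (MulAut.conj c) _ (hV (Subgroup.mem_zpowers g))
    obtain ⟨y, -, hy⟩ := hmem
    have ho : orderOf (c * g * c⁻¹) = 8 := by
      rw [← hg]; exact (SemiconjBy.orderOf_eq c (show SemiconjBy c g (c * g * c⁻¹) by simp [SemiconjBy])).symm
    have h2 := pow_two_of_commute hF hx (hC _ y.2) (by
      rw [show (y : AutPSU.P 3 F 5) = c * g * c⁻¹ from hy, ho]; norm_num)
    rw [show (y : AutPSU.P 3 F 5) = c * g * c⁻¹ from hy] at h2
    have := orderOf_dvd_iff_pow_eq_one.2 h2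
    rw [ho] at this
    norm_num at this

theorem not_normal [IsSimpleGroup (AutPSU.P 3 F 5)] (H : Subgroup (AutPSU.P 3 F 5)) (h1 : H ≠ ⊥) (h2 : H ≠ ⊤) :
    Subgroup.normalizer (H : Set (AutPSU.P 3 F 5)) ≠ ⊤ := fun h => by
  rcases (Subgroup.normalizer_eq_top_iff.1 h).eq_bot_or_eq_top with h' | h' <;> contradiction

/-- Transvection groups are the centres of Sylow 5-subgroups. -/
theorem exists_centre (Q : Sylow 5 (AutPSU.P 3 F 5)) [Fact (Nat.Prime 5)] :
    ∃ v : Fin 3 → F, Valid 5 v ∧ (∃ (e f : Fin 3 → F) (g : S 3 F 5), Pair 5 e f ∧ mat g *ᵥ e = v) ∧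
      (Q : Subgroup (AutPSU.P 3 F 5)) ⊓ Subgroup.centralizer ((Q : Subgroup (AutPSU.P 3 F 5)) : Set (AutPSU.P 3 F 5))
        = X hF v := by
  obtain ⟨e, f, HP⟩ := exists_pair hF (n := 3) (by norm_num)
  obtain ⟨Q₀, hQ₀⟩ := exists_sylow_centre hF (p := 5) (n := 3) (by norm_num) HP
  obtain ⟨a, ha⟩ := MulAction.exists_smul_eq (AutPSU.P 3 F 5) Q₀ Q
  obtain ⟨g, rfl⟩ := pr_surjective a
  refine ⟨mat g *ᵥ e, ⟨mulVec_ne_zero _ HP.e_ne, by rw [iso, HP.ee]⟩, ⟨e, f, g, HP, rfl⟩, ?_⟩
  have hv : hm 5 (mat g *ᵥ e) (mat g *ᵥ e) = 0 := by rw [iso, HP.ee]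
  ext x
  have e1 : x ∈ (Q : Subgroup (AutPSU.P 3 F 5)) ↔ (pr g)⁻¹ * x * pr g ∈ (Q₀ : Subgroup (AutPSU.P 3 F 5)) := by
    rw [← ha, Sylow.coe_subgroup_smul, Subgroup.mem_pointwise_smul_iff_inv_smul_mem]
    simp
  have e2 : x ∈ Subgroup.centralizer ((Q : Subgroup (AutPSU.P 3 F 5)) : Set (AutPSU.P 3 F 5)) ↔
      (pr g)⁻¹ * x * pr g ∈ Subgroup.centralizer ((Q₀ : Subgroup (AutPSU.P 3 F 5)) : Set (AutPSU.P 3 F 5)) := by
    simp only [Subgroup.mem_centralizer_iff, SetLike.mem_coe]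
    constructor
    · intro h y hy
      have h2 := h (pr g * y * (pr g)⁻¹) (by
        rw [← ha, Sylow.coe_subgroup_smul, Subgroup.mem_pointwise_smul_iff_inv_smul_mem]
        simpa [mul_assoc] using hy)
      calc y * ((pr g)⁻¹ * x * pr g) = (pr g)⁻¹ * (pr g * y * (pr g)⁻¹ * x) * pr g := by group
        _ = (pr g)⁻¹ * (x * (pr g * y * (pr g)⁻¹)) * pr g := by rw [h2]
        _ = _ := by group
    · intro h y hy
      have h2 := h ((pr g)⁻¹ * y * pr g) (by
        rw [← ha, Sylow.coe_subgroup_smul, Subgroup.mem_pointwise_smul_iff_inv_smul_mem] at hy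
        simpa [mul_assoc] using hy)
      calc y * x = pr g * ((pr g)⁻¹ * y * pr g * ((pr g)⁻¹ * x * pr g)) * (pr g)⁻¹ := by group
        _ = pr g * ((pr g)⁻¹ * x * pr g * ((pr g)⁻¹ * y * pr g)) * (pr g)⁻¹ := by rw [h2]
        _ = x * y := by group
  rw [Subgroup.mem_inf, e1, e2, ← Subgroup.mem_inf, hQ₀, mem_X hF HP.ee, mem_X hF hv]
  refine exists_congr fun c => and_congr_right fun hc => ?_
  rw [← tr_conj hF HP.ee hc g]
  constructor
  · intro h; rw [← h]; group
  · rintro rfl; group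

/-- Commuting transvections have the same centre. -/
theorem comm_centres {v w : Fin 3 → F} (hv : ∃ (e f : Fin 3 → F) (g : S 3 F 5), Pair 5 e f ∧ mat g *ᵥ e = v)
    (hw : Valid 5 w) {c d : F} (hc : Skew 5 c) (hd : Skew 5 d) (hd0 : d ≠ 0) (hc0 : c ≠ 0)
    (h : Commute (tr hF v c) (tr hF w d)) : tr hF w d ∈ X hF v := by
  obtain ⟨e, f, g, HP, rfl⟩ := hv
  set v := mat g *ᵥ e
  have hv0 : hm 5 v v = 0 := by rw [iso, HP.ee]
  obtain ⟨t, -, ht⟩ := fixes_of_commute hF (n := 3) (by norm_num) hw hd hd0 (s := T hF v c) h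
  rw [eigen_one (T_nilpotent hF hv0 hc) hw.1 ht, one_smul, T_mulVec hF hv0 hc] at ht
  rcases smul_eq_zero.1 (add_eq_left.1 ht) with h0 | h0
  swap
  · exact absurd h0 (mulVec_ne_zero _ HP.e_ne)
  have hwv : hm 5 w v = 0 := (mul_eq_zero.1 h0).resolve_left hc0
  set u := mat g⁻¹ *ᵥ w
  have hgu : mat g *ᵥ u = w := by
    rw [mulVec_mulVec, ← mat_mul, mul_inv_cancel, mat_one, one_mulVec]
  have hue : hm 5 u e = 0 := by
    rw [← iso g, hgu]; exact hwv
  have heu : hm 5 e u = 0 := hm_comm_zero hF hue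
  have huu : hm 5 u u = 0 := by
    rw [← iso g, hgu]; exact hw.2
  have hproj : proj 5 e f u = 0 := by
    obtain ⟨y, hy, hy0⟩ := exists_W_aniso hF HP (le_refl 3)
    obtain ⟨a, ha⟩ := W_line hF HP rfl hy (fun h => hy0 (by rw [h, hm_zero_left])) (proj_mem HP u)
    have hpp : hm 5 (proj 5 e f u) (proj 5 e f u) = 0 := by
      simp only [proj, hue, zero_smul, sub_zero]
      simp [hm_sub_left, hm_sub_right hF, hm_smul_left', hm_smul_right, huu, HP.ee, hue, heu]
    rw [ha, hm_smul_left', hm_smul_right] at hpp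
    rcases mul_eq_zero.1 hpp with h | h
    · rw [ha, h, zero_smul]
    · rcases mul_eq_zero.1 h with h | h
      · rw [ha, eq_zero_of_pow_eq_zero h, zero_smul]
      · exact absurd h hy0
  have hu : u = hm 5 u f • e := by
    conv_lhs => rw [decomp (q := 5) e f u, hproj, hue]
    simp
  have hw' : w = hm 5 u f • v := by rw [← hgu, hu, mulVec_smul]; congr 1; rw [← hu]
  rw [hw', tr_smul hF hv0 _ hd]
  exact tr_mem_X hF v (Skew.mul_fixed hd (norm_fixed' hF _))

end Cfsg.Agent.Lib.UThreeFive
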